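import Cfsg.Agent.L0.CosetChain

/-! Generated coset table certificate. -/

set_option autoImplicit false
set_option maxRecDepth 100000

open Cfsg.Agent.L0

namespace Cfsg.Agent.H3.S62.Tc4

noncomputable def t0 : BT := .leaf (nat_lit 0xa40000000000008a00d387480006980000000000044804e23a00002480000000000001002250d0000082000000000000060004000)

noncomputable def tree : BT := t0

noncomputable def row : ℕ → ℕ := rowOf tree (nat_lit 3) (nat_lit 7) (nat_lit 109) (nat_lit 0x1fffffffffffffffffffffffffff)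

noncomputable def cols : List Col := [⟨nat_lit 13, nat_lit 0, [([nat_lit 13], nat_lit 0), ([nat_lit 29, nat_lit 13, nat_lit 29], nat_lit 0)]⟩,
  ⟨nat_lit 29, nat_lit 0, [([nat_lit 29], nat_lit 0)]⟩,
  ⟨nat_lit 85, nat_lit 1, [([nat_lit 13, nat_lit 85, nat_lit 13], nat_lit 0), ([nat_lit 29, nat_lit 85, nat_lit 29], nat_lit 0)]⟩]

noncomputable def erots : List (List ℕ × ℕ) := []

noncomputable def gens : List ℕ := [nat_lit 13, nat_lit 29, nat_lit 85]

noncomputable def chk : ℕ → Bool := chkRow0 row (nat_lit 4) (nat_lit 0x7) (nat_lit 0x38) (nat_lit 6) (nat_lit 0x3) (nat_lit 0) (nat_lit 0x7) (nat_lit 3) (nat_lit 0xff) (nat_lit 0x1800) [] cols gens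

theorem b0 : allR chk 2 0 = true := by decide +kernel

noncomputable def T : CT := ⟨row, nat_lit 4, nat_lit 4, nat_lit 0x7, nat_lit 0x38, nat_lit 6, nat_lit 0x3, nat_lit 0, nat_lit 0x7, nat_lit 3, nat_lit 0xff, nat_lit 0x1800, nat_lit 109, nat_lit 109, nat_lit 0, nat_lit 4, [], cols, erots, gens⟩

theorem all : ∀ c < 4, chk c = true := fun c hc =>
  allR_glue (d := 2) (n := 1) (forall_lt_succ' forall_lt_zero' b0) c (lt_of_lt_of_le hc (by norm_num))

/-- the relators used -/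
def R : List (List ℕ) := [[nat_lit 0, nat_lit 0],
  [nat_lit 2, nat_lit 2],
  [nat_lit 0, nat_lit 9, nat_lit 0, nat_lit 9],
  [nat_lit 2, nat_lit 0, nat_lit 2, nat_lit 0],
  [nat_lit 2, nat_lit 9, nat_lit 2, nat_lit 9]]

theorem cert : Cert T (R.map fun r => (r, 0)) ([9].map fun y => (y, 0)) 13 8 [0, 2, 9] :=
  ⟨by decide +kernel, ⟨[[(0, 0), (3, 1)], [(1, 0)], [(2, 1), (4, 1)]], [], by decide +kernel⟩, by decide +kernel, Or.inl ⟨rfl, all⟩⟩

theorem bound {Γ : Type*} [Group Γ] {x : ℕ → Γ} (hR : ∀ r ∈ R, ev x r = 1) {n : ℕ}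
    (h : CardLe x [9] n) : CardLe x [0, 2, 9] (4 * n) :=
  cert.cardLe rfl hR h

end Cfsg.Agent.H3.S62.Tc4
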