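import Cfsg.Agent.H3.Mu.S62.Core
import Cfsg.Agent.H3.Mu.S62.L0
import Cfsg.Agent.H3.Mu.S62.P2
import Cfsg.Agent.H3.Mu.S62.P3

/-! The Schur multiplier. -/

set_option autoImplicit false
set_option maxRecDepth 100000

open Cfsg.Agent.L0

namespace Cfsg.Agent.H3.S62


theorem schur {G : Type*} [Group G] (hm : Model G 63 4 T Bf) :
    Finite G ∧ Nat.card G = 1451520 ∧ HasSchurMultiplier G (Multiplicative (ZMod 2)) := by
  obtain ⟨A, x, h⟩ := core' hm
  haveI := h.fin
  have h2 := P2.pm h.base h.tab h.card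
  have h3 := P3.pm h.base h.tab h.card
  have hr := pmult_rest h.card [] (by simp) (by decide +kernel) (by decide +kernel)
  exact ⟨h.fin, h.card, hasSchur_of (lower_one h.pres L0rep
    [(2, 7), (-2, 15), (1, 18)]
    (by decide +kernel) (by decide +kernel))
    (upper_cyclic (k2 := 1) (k3 := 0) rfl h2 (h3.mono (by norm_num)) hr)⟩

end Cfsg.Agent.H3.S62
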